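import Mathlib

/-!
# Group-theoretic lemmas for the simplicity of the commutator subgroup of Fi24 (helper35)
-/

set_option autoImplicit false

namespace Cfsg.Agent.H35

section Edge

variable {Q : Type*} [Group Q]

/-- two commuting involutions whose product has order dividing 3 are equal -/
theorem inv_edge_eq (x y : Q) (hx : x * x = 1) (hy : y * y = 1) (h3 : (x * y) ^ 3 = 1)
    (hc : x * y = y * x) : x = y := by
  have h2 : (x * y) ^ 2 = 1 := by
    rw [pow_two]
    calc x * y * (x * y) = x * (y * x) * y := by group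
      _ = x * (x * y) * y := by rw [hc]
      _ = (x * x) * (y * y) := by group
      _ = 1 := by rw [hx, hy, mul_one]
  have h1 : x * y = 1 := by
    have : (x * y) ^ 3 = (x * y) ^ 2 * (x * y) := pow_succ _ _
    rw [h3, h2, one_mul] at this
    exact this.symm
  have hyi : y⁻¹ = y := inv_eq_of_mul_eq_one_left hy
  calc x = y⁻¹ := eq_inv_of_mul_eq_one_left h1
    _ = y := hyi

/-- an involution whose product with the trivial element has order dividing 3 is trivial -/
theorem inv_edge_one (x y : Q) (hx : x * x = 1) (h3 : (x * y) ^ 3 = 1) (hy : y = 1) : x = 1 := by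
  subst hy
  rw [mul_one] at h3
  rw [pow_succ, pow_two, hx, one_mul] at h3
  exact h3

/-- the powers of an involution -/
theorem zpowers_inv_mem (t z : Q) (ht : t * t = 1) (hz : z ∈ Subgroup.zpowers t) : z = 1 ∨ z = t := by
  obtain ⟨n, rfl⟩ := Subgroup.mem_zpowers_iff.mp hz
  have h2 : t ^ (2 : ℤ) = 1 := by
    rw [zpow_ofNat, pow_two]; exact ht
  rcases Int.even_or_odd' n with ⟨m, hm | hm⟩
  · left
    rw [hm, zpow_mul, h2, one_zpow]
  · right
    rw [hm, zpow_add, zpow_mul, h2, one_zpow, one_mul, zpow_one]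

/-- commuting from a relator of exponent 2 -/
theorem comm_of_sq (x y : Q) (hx : x * x = 1) (hy : y * y = 1) (h : (x * y) ^ 2 = 1) :
    x * y = y * x := by
  rw [pow_two] at h
  have e : x * y = (x * y)⁻¹ := eq_inv_of_mul_eq_one_left h
  rw [mul_inv_rev, inv_eq_of_mul_eq_one_left hy, inv_eq_of_mul_eq_one_left hx] at e
  exact e

/-- a lift through a homomorphism -/
theorem lift_comp_apply {γ : Type*} {A : Type*} [Group A] (θ : A →* Q) (g : γ → A)
    (r : FreeGroup γ) : FreeGroup.lift (fun x => θ (g x)) r = θ (FreeGroup.lift g r) := by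
  have h : FreeGroup.lift (fun x => θ (g x)) = θ.comp (FreeGroup.lift g) := by
    apply FreeGroup.ext_hom
    intro a
    rw [FreeGroup.lift_apply_of, MonoidHom.comp_apply, FreeGroup.lift_apply_of]
  rw [h]
  rfl

end Edge

section IndexTwo

variable {G : Type*} [Group G]

/-- A normal subgroup `C` of index 2 that lies in every nontrivial normal subgroup of `G` and
whose order is not a square is simple. -/
theorem simple_of_index_two [Finite G] (C : Subgroup G) [hCn : C.Normal]
    (hidx : C.index = 2)
    (hmin : ∀ M : Subgroup G, M.Normal → M ≠ ⊥ → C ≤ M)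
    (hsq : ¬ IsSquare (Nat.card C)) (hnt : Nontrivial C) : IsSimpleGroup C := by
  refine @IsSimpleGroup.mk _ _ hnt ?_
  intro N hN
  by_contra hcon
  rw [not_or] at hcon
  obtain ⟨hbot, htop⟩ := hcon
  obtain ⟨t, ht⟩ : ∃ t : G, t ∉ C := by
    by_contra h
    have : C = ⊤ := by
      rw [eq_top_iff]
      intro x _
      by_contra hx
      exact h ⟨x, hx⟩
    rw [this, Subgroup.index_top] at hidx
    omega
  have htt : t * t ∈ C := (Subgroup.mul_mem_iff_of_index_two hidx).mpr Iff.rfl
  have hti : t⁻¹ ∉ C := fun h => ht (by simpa using C.inv_mem h)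
  let cj : G → (C →* C) := fun g => (MulAut.conjNormal g : C ≃* C).toMonoidHom
  have cj_apply : ∀ (g : G) (x : C), ((cj g x : C) : G) = g * x * g⁻¹ := fun g x => by
    simp [cj]
  have cj_mul : ∀ (g h : G) (x : C), cj (g * h) x = cj g (cj h x) := fun g h x => by
    apply Subtype.ext
    rw [cj_apply, cj_apply, cj_apply]
    group
  have cj_surj : ∀ g : G, Function.Surjective (cj g) := fun g =>
    (MulAut.conjNormal g : C ≃* C).surjective
  have cj_inj : ∀ g : G, Function.Injective (cj g) := fun g =>
    (MulAut.conjNormal g : C ≃* C).injective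
  let N' : Subgroup C := N.map (cj t)
  have hN' : N'.Normal := Subgroup.Normal.map hN (cj t) (cj_surj t)
  -- inner automorphisms preserve normal subgroups
  have hin : ∀ (K : Subgroup C), K.Normal → ∀ c : G, c ∈ C → K.map (cj c) ≤ K := by
    intro K hK c hc
    rintro _ ⟨x, hx, rfl⟩
    have e : cj c x = ⟨c, hc⟩ * x * ⟨c, hc⟩⁻¹ := by
      apply Subtype.ext
      rw [cj_apply]
      rfl
    rw [e]
    exact hK.conj_mem x hx _
  have hA : ∀ g : G, (N.map (cj g) ≤ N ∧ N'.map (cj g) ≤ N') ∨
      (N.map (cj g) ≤ N' ∧ N'.map (cj g) ≤ N) := by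
    intro g
    by_cases hg : g ∈ C
    · exact Or.inl ⟨hin N hN g hg, hin N' hN' g hg⟩
    · right
      have hc : g * t⁻¹ ∈ C := (Subgroup.mul_mem_iff_of_index_two hidx).mpr
        ⟨fun h => absurd h hg, fun h => absurd h hti⟩
      constructor
      · rintro _ ⟨x, hx, rfl⟩
        have e : cj g x = cj (g * t⁻¹) (cj t x) := by
          rw [← cj_mul]
          congr 2
          group
        rw [e]
        exact hin N' hN' _ hc ⟨cj t x, ⟨x, hx, rfl⟩, rfl⟩
      · rintro _ ⟨_, ⟨y, hy, rfl⟩, rfl⟩
        have e : cj g (cj t y) = cj (g * t⁻¹) (cj (t * t) y) := by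
          rw [← cj_mul, ← cj_mul]
          congr 2
          group
        rw [e]
        exact hin N hN _ hc ⟨cj (t * t) y, hin N hN _ htt ⟨y, hy, rfl⟩, rfl⟩
  -- pushing invariant subgroups of `C` to normal subgroups of `G`
  have hpush : ∀ K : Subgroup C, (∀ g : G, K.map (cj g) ≤ K) → (K.map C.subtype).Normal := by
    intro K hK
    constructor
    rintro _ ⟨x, hx, rfl⟩ g
    refine ⟨cj g x, hK g ⟨x, hx, rfl⟩, ?_⟩
    rw [Subgroup.coe_subtype, cj_apply]
  have hinf : ∀ g : G, (N ⊓ N').map (cj g) ≤ N ⊓ N' := by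
    intro g
    rcases hA g with ⟨h1, h2⟩ | ⟨h1, h2⟩
    · exact le_inf ((Subgroup.map_mono inf_le_left).trans h1) ((Subgroup.map_mono inf_le_right).trans h2)
    · exact le_inf ((Subgroup.map_mono inf_le_right).trans h2) ((Subgroup.map_mono inf_le_left).trans h1)
  have hsup : ∀ g : G, (N ⊔ N').map (cj g) ≤ N ⊔ N' := by
    intro g
    rw [Subgroup.map_sup]
    rcases hA g with ⟨h1, h2⟩ | ⟨h1, h2⟩
    · exact sup_le (h1.trans le_sup_left) (h2.trans le_sup_right)
    · exact sup_le (h1.trans le_sup_right) (h2.trans le_sup_left)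
  have hsubinj : Function.Injective C.subtype := Subgroup.subtype_injective C
  -- the intersection is trivial
  have hdisj : N ⊓ N' = ⊥ := by
    by_contra hne
    have h1 : (N ⊓ N').map C.subtype ≠ ⊥ := by
      intro h
      exact hne ((Subgroup.map_eq_bot_iff_of_injective _ hsubinj).mp h)
    have h2 := hmin _ (hpush _ hinf) h1
    apply htop
    rw [eq_top_iff]
    intro x _
    obtain ⟨y, hy, e⟩ := h2 x.2
    have : y = x := Subtype.ext e
    rw [← this]
    exact hy.1
  -- the join is everything
  have hjoin : N ⊔ N' = ⊤ := by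
    have h1 : (N ⊔ N').map C.subtype ≠ ⊥ := by
      intro h
      have h3 : N ⊔ N' = ⊥ := (Subgroup.map_eq_bot_iff_of_injective _ hsubinj).mp h
      exact hbot (le_bot_iff.mp (h3 ▸ le_sup_left))
    have h2 := hmin _ (hpush _ hsup) h1
    rw [eq_top_iff]
    intro x _
    obtain ⟨y, hy, e⟩ := h2 x.2
    have : y = x := Subtype.ext e
    rw [← this]
    exact hy
  have hcompl : Subgroup.IsComplement' N N' := by
    apply Subgroup.isComplement'_of_disjoint_and_mul_eq_univ (disjoint_iff.mpr hdisj)
    rw [← Subgroup.mul_normal N N', hjoin]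
    rfl
  have hcard := hcompl.card_mul_card
  have hcN' : Nat.card N' = Nat.card N :=
    Nat.card_congr (N.equivMapOfInjective (cj t) (cj_inj t)).symm.toEquiv
  rw [hcN'] at hcard
  exact hsq ⟨Nat.card N, hcard.symm⟩

end IndexTwo

end Cfsg.Agent.H35
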