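import Cfsg.Agent.H35.T1690.PAll
import Cfsg.Agent.H35.T1690.RAll

/-!
# The permutation representation of the presented Fi24 on 306936 points (helper35)

The certificates of `S1690` (`T1690`), for the subgroup `⟨a, …, j, l⟩` as a closure of words.
-/

set_option autoImplicit false
set_option maxRecDepth 100000

namespace Cfsg.Agent.H35

open Cfsg.Spor

/-- the subgroup `⟨a, …, j, l⟩` of the presented Fi24 -/
def fi24Hs : Subgroup Fi24 := Subgroup.closure {g | ∃ w ∈ t1690_sw, g = uw fi24_gen w}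

theorem fi24_rsw_eq : t1690_rsw = t1690_sw := by decide

theorem fi24_tchyp :
    W.TCHyp fi24_gen fi24Hs t1690_pd t1690_rd fi24_prws fi24_pprels t1690_sw where
  UP := fun f hf h1 h2 => fi24_UPp f hf h1 h2
  hP := by
    refine ⟨by decide, fi24_gens_all, ?_, t1690_psub⟩
    intro p hp
    exact t1690_pall p hp
  hy := by
    refine ⟨fi24_inv, fi24_gof_gi, by decide, fun p hp => wrapRow_of_le _ _ p hp, ?_, ?_,
      t1690_h0, by decide⟩
    · exact circTab_valid fi24_gen fi24_inv _ fi24_full_one t1690_circT t1690_ccert t1690_circ_ok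
    · refine hcTab_valid fi24_gen fi24_inv fi24Hs t1690_rsw ?_ t1690_hc1T t1690_hc2T _
        (fun c hc => allR_sound _ _ _ 0 t1690_hc_ok c (Nat.zero_le _) (by omega) hc)
      intro w hw
      rw [fi24_rsw_eq] at hw
      exact Subgroup.subset_closure ⟨w, hw, rfl⟩
  hgensR := fi24_gens_all
  hgen := fi24_closure
  hN := by decide
  hNM := by decide
  hNN := rfl
  hchk := t1690_rall
  hH := rfl

theorem fi24_N_pos : 0 < t1690_pd.N := by decide

/-- the permutation representation of Fi24 on the cosets of `⟨a, …, j, l⟩` -/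
theorem fi24_rep : ∃ ρ : Fi24 →* Equiv.Perm (Fin t1690_pd.N),
    (∀ (w : List Fi24.Gen) (p : Fin t1690_pd.N),
      t1690_pd.walk w p.val = ((ρ (uw fi24_gen w))⁻¹ p).val) ∧
    fi24Hs = stabOf ρ ⟨0, fi24_N_pos⟩ ∧
    (∀ ω : Fin t1690_pd.N, ∃ g : Fi24, ρ g ⟨0, fi24_N_pos⟩ = ω) :=
  W.tc_core fi24_tchyp fi24_N_pos

theorem fi24Hs_index : fi24Hs.index = 306936 := W.tc_index fi24_tchyp

end Cfsg.Agent.H35
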