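import Cfsg.Agent.H35.Fi24T.OLab

set_option autoImplicit false
set_option linter.all false
set_option Elab.async false

namespace Cfsg.Agent.H35

theorem fi24_forchk_13 : allR fi24_forf 306936 13 (13 * 2 ^ 13) = true := by decide +kernel
theorem fi24_forchk_14 : allR fi24_forf 306936 13 (14 * 2 ^ 13) = true := by decide +kernel
theorem fi24_forchk_15 : allR fi24_forf 306936 13 (15 * 2 ^ 13) = true := by decide +kernel
theorem fi24_forchk_16 : allR fi24_forf 306936 13 (16 * 2 ^ 13) = true := by decide +kernel
theorem fi24_forchk_17 : allR fi24_forf 306936 13 (17 * 2 ^ 13) = true := by decide +kernel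
theorem fi24_forchk_18 : allR fi24_forf 306936 13 (18 * 2 ^ 13) = true := by decide +kernel
theorem fi24_forchk_19 : allR fi24_forf 306936 13 (19 * 2 ^ 13) = true := by decide +kernel
theorem fi24_forchk_20 : allR fi24_forf 306936 13 (20 * 2 ^ 13) = true := by decide +kernel
theorem fi24_forchk_21 : allR fi24_forf 306936 13 (21 * 2 ^ 13) = true := by decide +kernel
theorem fi24_forchk_22 : allR fi24_forf 306936 13 (22 * 2 ^ 13) = true := by decide +kernel
theorem fi24_forchk_23 : allR fi24_forf 306936 13 (23 * 2 ^ 13) = true := by decide +kernel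
theorem fi24_forchk_24 : allR fi24_forf 306936 13 (24 * 2 ^ 13) = true := by decide +kernel
theorem fi24_forchk_25 : allR fi24_forf 306936 13 (25 * 2 ^ 13) = true := by decide +kernel

end Cfsg.Agent.H35
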