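import Cfsg.Agent.H35.Fi24T.OLab

set_option autoImplicit false
set_option linter.all false
set_option Elab.async false

namespace Cfsg.Agent.H35

theorem fi24_forchk_26 : allR fi24_forf 306936 13 (26 * 2 ^ 13) = true := by decide +kernel
theorem fi24_forchk_27 : allR fi24_forf 306936 13 (27 * 2 ^ 13) = true := by decide +kernel
theorem fi24_forchk_28 : allR fi24_forf 306936 13 (28 * 2 ^ 13) = true := by decide +kernel
theorem fi24_forchk_29 : allR fi24_forf 306936 13 (29 * 2 ^ 13) = true := by decide +kernel
theorem fi24_forchk_30 : allR fi24_forf 306936 13 (30 * 2 ^ 13) = true := by decide +kernel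
theorem fi24_forchk_31 : allR fi24_forf 306936 13 (31 * 2 ^ 13) = true := by decide +kernel
theorem fi24_forchk_32 : allR fi24_forf 306936 13 (32 * 2 ^ 13) = true := by decide +kernel
theorem fi24_forchk_33 : allR fi24_forf 306936 13 (33 * 2 ^ 13) = true := by decide +kernel
theorem fi24_forchk_34 : allR fi24_forf 306936 13 (34 * 2 ^ 13) = true := by decide +kernel
theorem fi24_forchk_35 : allR fi24_forf 306936 13 (35 * 2 ^ 13) = true := by decide +kernel
theorem fi24_forchk_36 : allR fi24_forf 306936 13 (36 * 2 ^ 13) = true := by decide +kernel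
theorem fi24_forchk_37 : allR fi24_forf 306936 13 (37 * 2 ^ 13) = true := by decide +kernel

end Cfsg.Agent.H35
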