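import Cfsg.Agent.H35.Fi24T.OChk0
import Cfsg.Agent.H35.Fi24T.OChk1
import Cfsg.Agent.H35.Fi24T.OChk2

set_option autoImplicit false
set_option linter.all false
set_option Elab.async false

namespace Cfsg.Agent.H35

theorem fi24_for_all : ∀ p, p < 306936 → fi24_forf p = true := by
  apply allR_blocks fi24_forf 306936 13 38 _ (by decide)
  intro k hk
  interval_cases k
  · exact fi24_forchk_0
  · exact fi24_forchk_1
  · exact fi24_forchk_2
  · exact fi24_forchk_3
  · exact fi24_forchk_4
  · exact fi24_forchk_5
  · exact fi24_forchk_6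
  · exact fi24_forchk_7
  · exact fi24_forchk_8
  · exact fi24_forchk_9
  · exact fi24_forchk_10
  · exact fi24_forchk_11
  · exact fi24_forchk_12
  · exact fi24_forchk_13
  · exact fi24_forchk_14
  · exact fi24_forchk_15
  · exact fi24_forchk_16
  · exact fi24_forchk_17
  · exact fi24_forchk_18
  · exact fi24_forchk_19
  · exact fi24_forchk_20
  · exact fi24_forchk_21
  · exact fi24_forchk_22
  · exact fi24_forchk_23
  · exact fi24_forchk_24
  · exact fi24_forchk_25
  · exact fi24_forchk_26
  · exact fi24_forchk_27
  · exact fi24_forchk_28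
  · exact fi24_forchk_29
  · exact fi24_forchk_30
  · exact fi24_forchk_31
  · exact fi24_forchk_32
  · exact fi24_forchk_33
  · exact fi24_forchk_34
  · exact fi24_forchk_35
  · exact fi24_forchk_36
  · exact fi24_forchk_37

end Cfsg.Agent.H35
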