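import Cfsg.Agent.H35.Fi24T.OLab

set_option autoImplicit false
set_option linter.all false
set_option Elab.async false

namespace Cfsg.Agent.H35

theorem fi24_cls_k : fld 8 (t1690_olab (t1690_pd.walk [.k] 0)) 0 = 1 := by decide +kernel
theorem fi24_cls_pb : fld 8 (t1690_olab 12) 0 = 2 := by decide +kernel
theorem fi24_fix_pb : t1690_pd.walk [.k] 12 = 12 := by decide +kernel

end Cfsg.Agent.H35
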