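import Cfsg.Agent.H35.Fi24T.YTab

set_option autoImplicit false
set_option linter.all false
set_option Elab.async false

namespace Cfsg.Agent.H35

open Cfsg.Agent.H10 Cfsg.Spor

theorem y5p_pchk_0 : allR y5p_pf 1080 8 (0 * 2 ^ 8) = true := by decide +kernel
theorem y5p_pchk_1 : allR y5p_pf 1080 8 (1 * 2 ^ 8) = true := by decide +kernel
theorem y5p_pchk_2 : allR y5p_pf 1080 8 (2 * 2 ^ 8) = true := by decide +kernel
theorem y5p_pchk_3 : allR y5p_pf 1080 8 (3 * 2 ^ 8) = true := by decide +kernel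
theorem y5p_pchk_4 : allR y5p_pf 1080 8 (4 * 2 ^ 8) = true := by decide +kernel
theorem y5p_pall : ∀ p, p < 1080 → y5p_pf p = true := by
  apply allR_blocks y5p_pf 1080 8 5 _ (by decide)
  intro k hk
  interval_cases k
  · exact y5p_pchk_0
  · exact y5p_pchk_1
  · exact y5p_pchk_2
  · exact y5p_pchk_3
  · exact y5p_pchk_4
theorem y5p_psub : y5p_pd.subOK ([] : List (List Fi24.Gen)) = true := by decide +kernel
theorem y5x_id : allR y5x_idf 1080 11 0 = true := by decide +kernel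
theorem y5x_lt : slpLt 12 y5x_defs = true := by decide +kernel
theorem y5x_slp : allR y5x_slpf 1080 11 0 = true := by decide +kernel
theorem y5_sp : allR y5_spf 1080 11 0 = true := by decide +kernel
theorem y5_lvl2 : allR (fun p => lvlOK y5x_pd y5_lab 0 y5_ws2 5 p) 1080 11 0 = true := by decide +kernel
theorem y5_fix2 : fixOK y5x_pd y5_ws2 [0] = true := by decide +kernel
theorem y5_cnt2 : cntR (fun p => Nat.ble 1 (fld 16 (y5_lab p) 0)) 1080 11 0 = 728 := by decide +kernel
theorem y5_lvl3 : allR (fun p => lvlOK y5x_pd y5_lab 2 y5_ws3 3 p) 1080 11 0 = true := by decide +kernel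
theorem y5_fix3 : fixOK y5x_pd y5_ws3 [0, 5] = true := by decide +kernel
theorem y5_cnt3 : cntR (fun p => Nat.ble 1 (fld 16 (y5_lab p) 2)) 1080 11 0 = 243 := by decide +kernel
theorem y5_lvl4 : allR (fun p => lvlOK y5x_pd y5_lab 4 y5_ws4 16 p) 1080 11 0 = true := by decide +kernel
theorem y5_fix4 : fixOK y5x_pd y5_ws4 [0, 5, 3] = true := by decide +kernel
theorem y5_cnt4 : cntR (fun p => Nat.ble 1 (fld 16 (y5_lab p) 4)) 1080 11 0 = 72 := by decide +kernel
theorem y5_lvl5 : allR (fun p => lvlOK y5x_pd y5_lab 6 y5_ws5 8 p) 1080 11 0 = true := by decide +kernel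
theorem y5_fix5 : fixOK y5x_pd y5_ws5 [0, 5, 3, 16] = true := by decide +kernel
theorem y5_cnt5 : cntR (fun p => Nat.ble 1 (fld 16 (y5_lab p) 6)) 1080 11 0 = 20 := by decide +kernel
theorem y5_lvl6 : allR (fun p => lvlOK y5x_pd y5_lab 8 y5_ws6 1 p) 1080 11 0 = true := by decide +kernel
theorem y5_fix6 : fixOK y5x_pd y5_ws6 [0, 5, 3, 16, 8] = true := by decide +kernel
theorem y5_cnt6 : cntR (fun p => Nat.ble 1 (fld 16 (y5_lab p) 8)) 1080 11 0 = 9 := by decide +kernel
theorem y5_lvl7 : allR (fun p => lvlOK y5x_pd y5_lab 10 y5_ws7 15 p) 1080 11 0 = true := by decide +kernel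
theorem y5_fix7 : fixOK y5x_pd y5_ws7 [0, 5, 3, 16, 8, 1] = true := by decide +kernel
theorem y5_cnt7 : cntR (fun p => Nat.ble 1 (fld 16 (y5_lab p) 10)) 1080 11 0 = 4 := by decide +kernel

end Cfsg.Agent.H35
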