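import Cfsg.Agent.H35.Fi24T.Upper
import Cfsg.Agent.H35.Fi24T.YChk

/-!
# The spider relation holds in the presented Fi24 (helper35)

The sub-presentation `Y5P1` of Fi24 on `l, k, a, b, c, d, e, f, h, i` has order at most
`9904359628800` (`Fi24T/Upper.lean`); its permutation representation on 1080 points has a
stabiliser chain with orbits 1080 · 728 · 243 · 72 · 20 · 9 · 4, whose product is that number, so it is
faithful; the spider word `(d c b d e f d h i)^10` acts trivially, so it is `1` in `Y5P1`, hence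
in Fi24.  (The Fi24 presentation does not list the spider relation.)
-/

set_option autoImplicit false

namespace Cfsg.Agent.H35

open Cfsg.Agent.H10 Cfsg.Spor

theorem y5x_gi_ge (k : ℕ) (hk : 30 ≤ k) : y5x_gi k = 30 := by
  unfold y5x_gi
  rw [ble_false_of (by omega)]

theorem y5x_gi_lt (k : ℕ) (hk : k < 30) : y5x_gi k = k := by
  unfold y5x_gi
  rw [ble_true_of (by omega)]

theorem y5p_ok : PermOK y5p_pd y5v1_rws y5v1_prels ([] : List (List Fi24.Gen)) :=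
  ⟨by decide, fi24_gens_all, y5p_pall, y5p_psub⟩

/-- the representation of the sub-presentation on 1080 points is faithful -/
theorem y5_faithful : ∃ ρ : Y5P1 →* Equiv.Perm (Fin y5p_pd.N),
    (∀ (w : List Fi24.Gen) (p : Fin y5p_pd.N),
      y5p_pd.walk w p.val = ((ρ (uw (wgGen y5v1_rws y5v1_prels) w))⁻¹ p).val) ∧
    ∀ g : Y5P1, ρ g = 1 → g = 1 := by
  have hN : 0 < y5p_pd.N := by decide
  obtain ⟨ρ, hw, htr, -⟩ := perm_rep (wgGen y5v1_rws y5v1_prels)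
    (fun f hf h1 h2 => wg_UP y5v1_rws y5v1_prels f hf h1 h2) y5p_ok
  refine ⟨ρ, hw, ?_⟩
  have hfin : Finite Y5P1 := y5v1_bound.1
  have hbase : ∀ k, k < 12 → ∀ p : Fin y5x_pd.N,
      y5x_pd.act p.val k = ((ρ (wgGen y5v1_rws y5v1_prels (fi24_gof k)))⁻¹ p).val := by
    intro k hk p
    have h4 := hw [fi24_gof k] p
    rw [uw_singleton] at h4
    rw [← h4]
    show fld 16 (y5x_rowT p.val) (y5x_gi k) = fld 16 (y5x_rowT p.val) (fi24_gi (fi24_gof k))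
    rw [y5x_gi_lt k (by omega)]
    interval_cases k <;> rfl
  have hid : ∀ p, p < y5x_pd.N → ∀ k, 12 + y5x_defs.length ≤ k → y5x_pd.act p k = p := by
    intro p hp k hk
    have hlen : y5x_defs.length = 18 := rfl
    rw [hlen] at hk
    have h1 := allR_all _ _ 11 (by decide) y5x_id p hp
    unfold y5x_idf at h1
    rw [Nat.beq_eq] at h1
    have h3 : y5x_pd.gi k = 30 := y5x_gi_ge k (by omega)
    show fld 16 (y5x_pd.row p) (y5x_pd.gi k) = p
    rw [h3]; exact h1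
  obtain ⟨gen', hgb, hw'⟩ := slp_real y5x_pd ρ 12 (fun k => wgGen y5v1_rws y5v1_prels (fi24_gof k)) hbase
    y5x_defs y5x_lt (fun p hp => allR_all _ _ 11 (by decide) y5x_slp p hp) hid
  let b1 : Fin y5p_pd.N := ⟨0, by decide⟩
  let b2 : Fin y5p_pd.N := ⟨5, by decide⟩
  let b3 : Fin y5p_pd.N := ⟨3, by decide⟩
  let b4 : Fin y5p_pd.N := ⟨16, by decide⟩
  let b5 : Fin y5p_pd.N := ⟨8, by decide⟩
  let b6 : Fin y5p_pd.N := ⟨1, by decide⟩
  let b7 : Fin y5p_pd.N := ⟨15, by decide⟩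
  let K2 : Subgroup Y5P1 := ⊤ ⊓ stabOf ρ b1
  let K3 : Subgroup Y5P1 := K2 ⊓ stabOf ρ b2
  let K4 : Subgroup Y5P1 := K3 ⊓ stabOf ρ b3
  let K5 : Subgroup Y5P1 := K4 ⊓ stabOf ρ b4
  let K6 : Subgroup Y5P1 := K5 ⊓ stabOf ρ b5
  let K7 : Subgroup Y5P1 := K6 ⊓ stabOf ρ b6
  let K8 : Subgroup Y5P1 := K7 ⊓ stabOf ρ b7
  have s1 : 1080 * Nat.card K2 ≤ Nat.card (⊤ : Subgroup Y5P1) := by
    have := level_step ρ ⊤ b1 Finset.univ (fun x _ => by
      obtain ⟨g, hg⟩ := htr x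
      exact ⟨g, Subgroup.mem_top g, hg⟩)
    rw [Finset.card_univ, Fintype.card_fin] at this
    exact this
  have hK2 : ∀ w ∈ y5_ws2, uw gen' w ∈ K2 := fun w hwm =>
    ⟨Subgroup.mem_top _, fixOK_mem (D := y5x_pd) gen' ρ hw' y5_ws2 _ y5_fix2 w hwm b1 (by show (0 : ℕ) ∈ _; decide)⟩
  have s2 : 728 * Nat.card K3 ≤ Nat.card K2 := by
    have := level_step ρ K2 b2
      (Finset.univ.filter (fun p : Fin y5p_pd.N => Nat.ble 1 (fld 16 (y5_lab p.val) 0) = true))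
      (fun x hx => by
        rw [Finset.mem_filter, Nat.ble_eq] at hx
        exact lvl_orbit (D := y5x_pd) gen' ρ hw' K2 y5_lab 0 y5_ws2 b2 hK2
          (allR_all _ _ 11 (by decide) y5_lvl2) _ x rfl hx.2)
    rw [card_filter_fin (fun i => Nat.ble 1 (fld 16 (y5_lab i) 0)) y5p_pd.N 11 (by decide)] at this
    rw [show cntR (fun i => Nat.ble 1 (fld 16 (y5_lab i) 0)) y5p_pd.N 11 0 = 728 from y5_cnt2]
      at this
    exact this
  have hK3 : ∀ w ∈ y5_ws3, uw gen' w ∈ K3 := fun w hwm =>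
    ⟨⟨Subgroup.mem_top _, fixOK_mem (D := y5x_pd) gen' ρ hw' y5_ws3 _ y5_fix3 w hwm b1 (by show (0 : ℕ) ∈ _; decide)⟩, fixOK_mem (D := y5x_pd) gen' ρ hw' y5_ws3 _ y5_fix3 w hwm b2 (by show (5 : ℕ) ∈ _; decide)⟩
  have s3 : 243 * Nat.card K4 ≤ Nat.card K3 := by
    have := level_step ρ K3 b3
      (Finset.univ.filter (fun p : Fin y5p_pd.N => Nat.ble 1 (fld 16 (y5_lab p.val) 2) = true))
      (fun x hx => by
        rw [Finset.mem_filter, Nat.ble_eq] at hx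
        exact lvl_orbit (D := y5x_pd) gen' ρ hw' K3 y5_lab 2 y5_ws3 b3 hK3
          (allR_all _ _ 11 (by decide) y5_lvl3) _ x rfl hx.2)
    rw [card_filter_fin (fun i => Nat.ble 1 (fld 16 (y5_lab i) 2)) y5p_pd.N 11 (by decide)] at this
    rw [show cntR (fun i => Nat.ble 1 (fld 16 (y5_lab i) 2)) y5p_pd.N 11 0 = 243 from y5_cnt3]
      at this
    exact this
  have hK4 : ∀ w ∈ y5_ws4, uw gen' w ∈ K4 := fun w hwm =>
    ⟨⟨⟨Subgroup.mem_top _, fixOK_mem (D := y5x_pd) gen' ρ hw' y5_ws4 _ y5_fix4 w hwm b1 (by show (0 : ℕ) ∈ _; decide)⟩, fixOK_mem (D := y5x_pd) gen' ρ hw' y5_ws4 _ y5_fix4 w hwm b2 (by show (5 : ℕ) ∈ _; decide)⟩, fixOK_mem (D := y5x_pd) gen' ρ hw' y5_ws4 _ y5_fix4 w hwm b3 (by show (3 : ℕ) ∈ _; decide)⟩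
  have s4 : 72 * Nat.card K5 ≤ Nat.card K4 := by
    have := level_step ρ K4 b4
      (Finset.univ.filter (fun p : Fin y5p_pd.N => Nat.ble 1 (fld 16 (y5_lab p.val) 4) = true))
      (fun x hx => by
        rw [Finset.mem_filter, Nat.ble_eq] at hx
        exact lvl_orbit (D := y5x_pd) gen' ρ hw' K4 y5_lab 4 y5_ws4 b4 hK4
          (allR_all _ _ 11 (by decide) y5_lvl4) _ x rfl hx.2)
    rw [card_filter_fin (fun i => Nat.ble 1 (fld 16 (y5_lab i) 4)) y5p_pd.N 11 (by decide)] at this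
    rw [show cntR (fun i => Nat.ble 1 (fld 16 (y5_lab i) 4)) y5p_pd.N 11 0 = 72 from y5_cnt4]
      at this
    exact this
  have hK5 : ∀ w ∈ y5_ws5, uw gen' w ∈ K5 := fun w hwm =>
    ⟨⟨⟨⟨Subgroup.mem_top _, fixOK_mem (D := y5x_pd) gen' ρ hw' y5_ws5 _ y5_fix5 w hwm b1 (by show (0 : ℕ) ∈ _; decide)⟩, fixOK_mem (D := y5x_pd) gen' ρ hw' y5_ws5 _ y5_fix5 w hwm b2 (by show (5 : ℕ) ∈ _; decide)⟩, fixOK_mem (D := y5x_pd) gen' ρ hw' y5_ws5 _ y5_fix5 w hwm b3 (by show (3 : ℕ) ∈ _; decide)⟩, fixOK_mem (D := y5x_pd) gen' ρ hw' y5_ws5 _ y5_fix5 w hwm b4 (by show (16 : ℕ) ∈ _; decide)⟩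
  have s5 : 20 * Nat.card K6 ≤ Nat.card K5 := by
    have := level_step ρ K5 b5
      (Finset.univ.filter (fun p : Fin y5p_pd.N => Nat.ble 1 (fld 16 (y5_lab p.val) 6) = true))
      (fun x hx => by
        rw [Finset.mem_filter, Nat.ble_eq] at hx
        exact lvl_orbit (D := y5x_pd) gen' ρ hw' K5 y5_lab 6 y5_ws5 b5 hK5
          (allR_all _ _ 11 (by decide) y5_lvl5) _ x rfl hx.2)
    rw [card_filter_fin (fun i => Nat.ble 1 (fld 16 (y5_lab i) 6)) y5p_pd.N 11 (by decide)] at this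
    rw [show cntR (fun i => Nat.ble 1 (fld 16 (y5_lab i) 6)) y5p_pd.N 11 0 = 20 from y5_cnt5]
      at this
    exact this
  have hK6 : ∀ w ∈ y5_ws6, uw gen' w ∈ K6 := fun w hwm =>
    ⟨⟨⟨⟨⟨Subgroup.mem_top _, fixOK_mem (D := y5x_pd) gen' ρ hw' y5_ws6 _ y5_fix6 w hwm b1 (by show (0 : ℕ) ∈ _; decide)⟩, fixOK_mem (D := y5x_pd) gen' ρ hw' y5_ws6 _ y5_fix6 w hwm b2 (by show (5 : ℕ) ∈ _; decide)⟩, fixOK_mem (D := y5x_pd) gen' ρ hw' y5_ws6 _ y5_fix6 w hwm b3 (by show (3 : ℕ) ∈ _; decide)⟩, fixOK_mem (D := y5x_pd) gen' ρ hw' y5_ws6 _ y5_fix6 w hwm b4 (by show (16 : ℕ) ∈ _; decide)⟩, fixOK_mem (D := y5x_pd) gen' ρ hw' y5_ws6 _ y5_fix6 w hwm b5 (by show (8 : ℕ) ∈ _; decide)⟩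
  have s6 : 9 * Nat.card K7 ≤ Nat.card K6 := by
    have := level_step ρ K6 b6
      (Finset.univ.filter (fun p : Fin y5p_pd.N => Nat.ble 1 (fld 16 (y5_lab p.val) 8) = true))
      (fun x hx => by
        rw [Finset.mem_filter, Nat.ble_eq] at hx
        exact lvl_orbit (D := y5x_pd) gen' ρ hw' K6 y5_lab 8 y5_ws6 b6 hK6
          (allR_all _ _ 11 (by decide) y5_lvl6) _ x rfl hx.2)
    rw [card_filter_fin (fun i => Nat.ble 1 (fld 16 (y5_lab i) 8)) y5p_pd.N 11 (by decide)] at this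
    rw [show cntR (fun i => Nat.ble 1 (fld 16 (y5_lab i) 8)) y5p_pd.N 11 0 = 9 from y5_cnt6]
      at this
    exact this
  have hK7 : ∀ w ∈ y5_ws7, uw gen' w ∈ K7 := fun w hwm =>
    ⟨⟨⟨⟨⟨⟨Subgroup.mem_top _, fixOK_mem (D := y5x_pd) gen' ρ hw' y5_ws7 _ y5_fix7 w hwm b1 (by show (0 : ℕ) ∈ _; decide)⟩, fixOK_mem (D := y5x_pd) gen' ρ hw' y5_ws7 _ y5_fix7 w hwm b2 (by show (5 : ℕ) ∈ _; decide)⟩, fixOK_mem (D := y5x_pd) gen' ρ hw' y5_ws7 _ y5_fix7 w hwm b3 (by show (3 : ℕ) ∈ _; decide)⟩, fixOK_mem (D := y5x_pd) gen' ρ hw' y5_ws7 _ y5_fix7 w hwm b4 (by show (16 : ℕ) ∈ _; decide)⟩, fixOK_mem (D := y5x_pd) gen' ρ hw' y5_ws7 _ y5_fix7 w hwm b5 (by show (8 : ℕ) ∈ _; decide)⟩, fixOK_mem (D := y5x_pd) gen' ρ hw' y5_ws7 _ y5_fix7 w hwm b6 (by show (1 : ℕ) ∈ _; decide)⟩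
  have s7 : 4 * Nat.card K8 ≤ Nat.card K7 := by
    have := level_step ρ K7 b7
      (Finset.univ.filter (fun p : Fin y5p_pd.N => Nat.ble 1 (fld 16 (y5_lab p.val) 10) = true))
      (fun x hx => by
        rw [Finset.mem_filter, Nat.ble_eq] at hx
        exact lvl_orbit (D := y5x_pd) gen' ρ hw' K7 y5_lab 10 y5_ws7 b7 hK7
          (allR_all _ _ 11 (by decide) y5_lvl7) _ x rfl hx.2)
    rw [card_filter_fin (fun i => Nat.ble 1 (fld 16 (y5_lab i) 10)) y5p_pd.N 11 (by decide)] at this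
    rw [show cntR (fun i => Nat.ble 1 (fld 16 (y5_lab i) 10)) y5p_pd.N 11 0 = 4 from y5_cnt7]
      at this
    exact this
  have hKpos : 0 < Nat.card K8 := Nat.card_pos
  have htop : Nat.card (⊤ : Subgroup Y5P1) = Nat.card Y5P1 := Subgroup.card_top
  have hub := y5v1_bound.2
  have hKlast : Nat.card K8 = 1 := by
    have e : (28431 * (120 * (56 * (27 * 1920))) : ℕ) = 1080 * 728 * 243 * 72 * 20 * 9 * 4 := by norm_num
    rw [e] at hub
    nlinarith [s1, s2, s3, s4, s5, s6, s7]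
  intro g hg
  have hmem : g ∈ K8 := by
    have hfix : ∀ b : Fin y5p_pd.N, g ∈ stabOf ρ b := fun b => by
      rw [mem_stabOf, hg]; rfl
    exact ⟨⟨⟨⟨⟨⟨⟨Subgroup.mem_top g, hfix b1⟩, hfix b2⟩, hfix b3⟩, hfix b4⟩, hfix b5⟩, hfix b6⟩, hfix b7⟩
  have hbot : K8 = ⊥ := Subgroup.card_eq_one.mp hKlast
  rw [hbot, Subgroup.mem_bot] at hmem
  exact hmem

/-- the spider word is trivial in the sub-presentation -/
theorem y5_spider : uw (wgGen y5v1_rws y5v1_prels) y5_spw = 1 := by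
  obtain ⟨ρ, hw, hinj⟩ := y5_faithful
  apply hinj
  have h1 : (ρ (uw (wgGen y5v1_rws y5v1_prels) y5_spw))⁻¹ = 1 := by
    ext p
    have h2 := allR_all _ _ 11 (by decide) y5_sp p.val p.isLt
    unfold y5_spf at h2
    rw [Nat.beq_eq] at h2
    rw [← hw y5_spw p, h2]
    rfl
  exact inv_eq_one.mp h1

/-- the spider relation in the presented Fi24 -/
theorem fi24_spider_w : uw fi24_gen y5_spw = 1 := by
  obtain ⟨φ, hφ⟩ := sub_hom y5v1_S fi24_gen fi24_inv fi24_rws fi24_prels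
    y5v1_rws y5v1_prels (fi24_list_of_sat _ fi24_sat).1 (fi24_list_of_sat _ fi24_sat).2 (by decide)
  have key : ∀ u : List Fi24.Gen, u.all y5v1_S = true →
      φ (uw (wgGen y5v1_rws y5v1_prels) u) = uw fi24_gen u := by
    intro u
    induction u with
    | nil => intro _; simp [uw]
    | cons x u ih =>
      intro hu
      rw [List.all_cons, Bool.and_eq_true] at hu
      rw [uw_cons, uw_cons, map_mul, hφ x hu.1, ih hu.2]
  rw [← key y5_spw (by decide), y5_spider, map_one]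

end Cfsg.Agent.H35
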