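import Cfsg.Agent.H35.Fi24T.Hyp
import Cfsg.Agent.H35.Fi24T.Spider
import Cfsg.Agent.H35.Fi24T.Grp
import Cfsg.Agent.S1697

/-!
# The order of the presented Fi24 (helper35)

`H = ⟨a, …, j, l⟩` has index 306936 (`S1690`).  The generator `l` is central in `H`, and modulo
`⟨l⟩` the generators `a, …, j` satisfy the presentation of Fi23: the Coxeter relations, the spider
relation (`Fi24T/Spider.lean`) and `(a b c d e f h)^9 = l ≡ 1`.  As Fi23 is simple (`S1697`,
helper10), `H / ⟨l⟩ ≅ Fi23`, so `|H| = 2 |Fi23|` and `|Fi24| = 306936 · 2 · |Fi23|`.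
-/

set_option autoImplicit false
set_option maxRecDepth 100000

namespace Cfsg.Agent.H35

open Cfsg.Spor Cfsg.Agent.H10

theorem fi24_edge (x y : Fi24.Gen) :
    (fi24_gen x * fi24_gen y) ^ coxLabel Fi24.edges x y = 1 := fi24_sat.1 x y

/-- generators that are not joined commute -/
theorem fi24_comm (x y : Fi24.Gen) (h : coxLabel Fi24.edges x y = 2) :
    fi24_gen x * fi24_gen y = fi24_gen y * fi24_gen x := by
  have h1 := fi24_edge x y
  rw [h] at h1
  exact comm_of_sq _ _ (fi24_inv x) (fi24_inv y) h1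

theorem fi24_mem_Hs (x : Fi24.Gen) (hx : x ≠ .k) : fi24_gen x ∈ fi24Hs := by
  have h : [x] ∈ t1690_sw := by
    cases x <;> first | exact absurd rfl hx | decide
  exact Subgroup.subset_closure ⟨[x], h, (uw_singleton _ _).symm⟩

/-- `l` is central in `⟨a, …, j, l⟩` -/
theorem fi24_l_central : ∀ h ∈ fi24Hs, h * fi24_gen .l = fi24_gen .l * h := by
  intro h hh
  have hle : fi24Hs ≤ Subgroup.centralizer {fi24_gen .l} := by
    unfold fi24Hs
    rw [Subgroup.closure_le]
    rintro g ⟨w, hw, rfl⟩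
    rw [SetLike.mem_coe, Subgroup.mem_centralizer_iff]
    intro z hz
    rw [Set.mem_singleton_iff] at hz
    subst hz
    rw [t1690_sw_def] at hw
    simp only [List.mem_cons, List.not_mem_nil, or_false] at hw
    rcases hw with rfl | rfl | rfl | rfl | rfl | rfl | rfl | rfl | rfl | rfl | rfl <;>
      rw [uw_singleton] <;> first | rfl | exact fi24_comm _ _ (by decide)
  have := (Subgroup.mem_centralizer_iff.mp (hle hh)) (fi24_gen .l) (Set.mem_singleton _)
  exact this.symm

theorem fi24_walk_l : t1690_pd.walk [.l] 1 = 2 := by decide +kernel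

theorem fi24_walk_a : t1690_pd.walk [.a] 1 = 3 := by decide +kernel

theorem fi24_l_ne_one : fi24_gen .l ≠ 1 := by
  obtain ⟨ρ, hw, -, -⟩ := fi24_rep
  intro h
  have h2 : t1690_pd.walk [.l] 1 = ((ρ (uw fi24_gen [.l]))⁻¹ ⟨1, by decide⟩).val :=
    hw [.l] ⟨1, by decide⟩
  rw [uw_singleton, h, map_one, inv_one, fi24_walk_l] at h2
  exact absurd h2 (by decide)

theorem fi24_a_ne_one : fi24_gen .a ≠ 1 := by
  obtain ⟨ρ, hw, -, -⟩ := fi24_rep
  intro h
  have h2 : t1690_pd.walk [.a] 1 = ((ρ (uw fi24_gen [.a]))⁻¹ ⟨1, by decide⟩).val :=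
    hw [.a] ⟨1, by decide⟩
  rw [uw_singleton, h, map_one, inv_one, fi24_walk_a] at h2
  exact absurd h2 (by decide)

theorem fi24_a_ne_l : fi24_gen .a ≠ fi24_gen .l := by
  obtain ⟨ρ, hw, -, -⟩ := fi24_rep
  intro h
  have h2 : t1690_pd.walk [.a] 1 = ((ρ (uw fi24_gen [.a]))⁻¹ ⟨1, by decide⟩).val :=
    hw [.a] ⟨1, by decide⟩
  have h3 : t1690_pd.walk [.l] 1 = ((ρ (uw fi24_gen [.l]))⁻¹ ⟨1, by decide⟩).val :=
    hw [.l] ⟨1, by decide⟩
  rw [uw_singleton, h, ← uw_singleton fi24_gen .l, ← h3, fi24_walk_a, fi24_walk_l] at h2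
  exact absurd h2 (by decide)

/-- the spider relation in the presented Fi24 -/
theorem fi24_spider : (fi24_gen .d * fi24_gen .c * fi24_gen .b * fi24_gen .d * fi24_gen .e *
    fi24_gen .f * fi24_gen .d * fi24_gen .h * fi24_gen .i) ^ 10 = 1 := by
  have h := fi24_spider_w
  have e : y5_spw = (List.replicate 10 [Fi24.Gen.d, .c, .b, .d, .e, .f, .d, .h, .i]).flatten := by
    decide
  rw [e, uw_rep] at h
  simpa only [uw_eq, List.map, List.prod_cons, List.prod_nil, mul_one, mul_assoc] using h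

/-- the relation `(a b c d e f h)^9 = l` of the presentation -/
theorem fi24_e7 : (fi24_gen .a * fi24_gen .b * fi24_gen .c * fi24_gen .d * fi24_gen .e *
    fi24_gen .f * fi24_gen .h) ^ 9 = fi24_gen .l := by
  have h := fi24_sat.2 (Fi24.l * ((Fi24.a * Fi24.b * Fi24.c * Fi24.d * Fi24.e * Fi24.f * Fi24.h) ^ 9)⁻¹)
    (by delta Fi24.extra; simp)
  simp only [map_mul, map_inv, map_pow, FreeGroup.lift_apply_of] at h
  exact (mul_inv_eq_one.mp h).symm

/-- the generators of Fi23 among those of Fi24 -/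
def fi23to24 : Fi23.Gen → Fi24.Gen
  | .a => .a
  | .b => .b
  | .c => .c
  | .d => .d
  | .e => .e
  | .f => .f
  | .g => .g
  | .j => .j
  | .h => .h
  | .i => .i

theorem fi23to24_ne (x : Fi23.Gen) : fi23to24 x ≠ .k := by
  cases x <;> decide

theorem fi23to24_label (x y : Fi23.Gen) :
    coxLabel Fi23.edges x y = coxLabel Fi24.edges (fi23to24 x) (fi23to24 y) := by
  cases x <;> cases y <;> rfl

/-- The structure of `H = ⟨a, …, j, l⟩`: its order, and its subgroups normalised by `H` -/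
theorem fi24_Hs_struct :
    Nat.card fi24Hs = 2 * 4089470473293004800 ∧
    ∀ K : Subgroup Fi24, K ≤ fi24Hs → (∀ h ∈ fi24Hs, ∀ x ∈ K, h * x * h⁻¹ ∈ K) →
      (∀ x ∈ K, x = 1 ∨ x = fi24_gen .l) ∨ (∀ h ∈ fi24Hs, h ∈ K ∨ h * fi24_gen .l ∈ K) := by
  classical
  let l0 : fi24Hs := ⟨fi24_gen .l, fi24_mem_Hs .l (by decide)⟩
  have hl0 : l0 * l0 = 1 := Subtype.ext (fi24_inv .l)
  have hl0ne : l0 ≠ 1 := fun h => fi24_l_ne_one (congrArg Subtype.val h)
  have hcen : ∀ h : fi24Hs, h * l0 = l0 * h := fun h => Subtype.ext (fi24_l_central h.1 h.2)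
  let Z : Subgroup fi24Hs := Subgroup.zpowers l0
  have hZmem : ∀ z ∈ Z, z = 1 ∨ z = l0 := fun z hz => zpowers_inv_mem l0 z hl0 hz
  have hZn : Z.Normal := by
    constructor
    intro z hz h
    rcases hZmem z hz with rfl | rfl
    · rw [mul_one, mul_inv_cancel]; exact Z.one_mem
    · rw [hcen h, mul_assoc, mul_inv_cancel, mul_one]; exact hz
  let π : fi24Hs →* fi24Hs ⧸ Z := QuotientGroup.mk' Z
  have hπl : π l0 = 1 := (QuotientGroup.eq_one_iff l0).mpr (Subgroup.mem_zpowers l0)
  let g : Fi23.Gen → fi24Hs := fun x => ⟨fi24_gen (fi23to24 x), fi24_mem_Hs _ (fi23to24_ne x)⟩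
  have hval : ∀ r : FreeGroup Fi23.Gen,
      ((FreeGroup.lift g r : fi24Hs) : Fi24) = FreeGroup.lift (fun x => fi24_gen (fi23to24 x)) r := by
    intro r
    exact (lift_comp_apply fi24Hs.subtype g r).symm
  have hsat : CoxSat Fi23.edges Fi23.extra (fun x => π (g x)) := by
    constructor
    · intro x y
      have h1 : (g x * g y) ^ coxLabel Fi24.edges (fi23to24 x) (fi23to24 y) = 1 := by
        apply Subtype.ext
        rw [Subgroup.coe_pow, Subgroup.coe_mul]
        exact fi24_edge _ _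
      rw [← map_mul, ← map_pow, fi23to24_label, h1, map_one]
    · intro r hr
      rw [lift_comp_apply π g r]
      delta Fi23.extra at hr
      simp only [List.mem_cons, List.not_mem_nil, or_false] at hr
      rcases hr with rfl | rfl
      · have h1 : FreeGroup.lift g ((Fi23.d * Fi23.c * Fi23.b * Fi23.d * Fi23.e * Fi23.f * Fi23.d *
            Fi23.h * Fi23.i) ^ 10) = 1 := by
          apply Subtype.ext
          rw [hval]
          simp only [map_mul, map_pow, FreeGroup.lift_apply_of]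
          exact fi24_spider
        rw [h1, map_one]
      · have h1 : FreeGroup.lift g ((Fi23.a * Fi23.b * Fi23.c * Fi23.d * Fi23.e * Fi23.f *
            Fi23.h) ^ 9) = l0 := by
          apply Subtype.ext
          rw [hval]
          simp only [map_mul, map_pow, FreeGroup.lift_apply_of]
          exact fi24_e7
        rw [h1, hπl]
  obtain ⟨ψ, hψ⟩ := cox_UP Fi23.edges Fi23.extra (fun x => π (g x)) hsat
  -- surjectivity
  have hgen : ∀ x : Fi23.Gen, ∀ hm : uw fi24_gen [fi23to24 x] ∈ fi24Hs,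
      π ⟨uw fi24_gen [fi23to24 x], hm⟩ ∈ ψ.range := by
    intro x hm
    refine ⟨PresentedGroup.of x, ?_⟩
    rw [hψ]
    congr 1
  have key : ∀ (x : Fi24) (hx : x ∈ fi24Hs), π ⟨x, hx⟩ ∈ ψ.range := by
    intro x hx
    refine Subgroup.closure_induction (p := fun x hx => π ⟨x, hx⟩ ∈ ψ.range) ?_ ?_ ?_ ?_ hx
    · rintro x ⟨w, hw, rfl⟩
      have hw' := hw
      rw [t1690_sw_def] at hw'
      simp only [List.mem_cons, List.not_mem_nil, or_false] at hw'
      rcases hw' with rfl | rfl | rfl | rfl | rfl | rfl | rfl | rfl | rfl | rfl | rfl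
      · exact hgen .a _
      · exact hgen .b _
      · exact hgen .c _
      · exact hgen .d _
      · exact hgen .e _
      · exact hgen .f _
      · exact hgen .g _
      · exact hgen .h _
      · exact hgen .i _
      · exact hgen .j _
      · have e : (⟨uw fi24_gen [Fi24.Gen.l], Subgroup.subset_closure ⟨[.l], hw, rfl⟩⟩ : fi24Hs) = l0 :=
          Subtype.ext (uw_singleton _ _)
        rw [e, hπl]
        exact ψ.range.one_mem
    · show π 1 ∈ ψ.range
      rw [map_one]
      exact ψ.range.one_mem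
    · intro x y hx hy ihx ihy
      show π (⟨x, hx⟩ * ⟨y, hy⟩) ∈ ψ.range
      rw [map_mul]
      exact ψ.range.mul_mem ihx ihy
    · intro x hx ihx
      show π (⟨x, hx⟩⁻¹) ∈ ψ.range
      rw [map_inv]
      exact ψ.range.inv_mem ihx
  have hsurj : Function.Surjective ψ := by
    intro q
    obtain ⟨h, rfl⟩ := QuotientGroup.mk'_surjective Z q
    exact key h.1 h.2
  have hga : π (g .a) ≠ 1 := by
    intro h
    have h1 : g .a ∈ Z := (QuotientGroup.eq_one_iff _).mp h
    rcases hZmem _ h1 with h2 | h2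
    · exact fi24_a_ne_one (congrArg Subtype.val h2)
    · exact fi24_a_ne_l (congrArg Subtype.val h2)
  have hnt : Nontrivial (fi24Hs ⧸ Z) := ⟨⟨π (g .a), 1, hga⟩⟩
  have hs23 : IsSimpleGroup Fi23 := Cfsg.Agent.S1697.result.1
  have hsimple : IsSimpleGroup (fi24Hs ⧸ Z) := IsSimpleGroup.isSimpleGroup_of_surjective ψ hsurj
  have hker : ψ.ker = ⊥ := by
    rcases (MonoidHom.normal_ker ψ).eq_bot_or_eq_top with h | h
    · exact h
    · exfalso
      have h1 : (PresentedGroup.of Fi23.Gen.a : Fi23) ∈ ψ.ker := by rw [h]; exact Subgroup.mem_top _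
      rw [MonoidHom.mem_ker, hψ] at h1
      exact hga h1
  have hcq : Nat.card (fi24Hs ⧸ Z) = 4089470473293004800 := by
    rw [← Cfsg.Agent.S1697.result.2]
    exact (Nat.card_congr (Equiv.ofBijective ψ ⟨(MonoidHom.ker_eq_bot_iff ψ).mp hker, hsurj⟩)).symm
  have hcZ : Nat.card Z = 2 := by
    rw [Nat.card_zpowers]
    exact orderOf_eq_prime (by rw [pow_two]; exact hl0) hl0ne
  constructor
  · rw [Subgroup.card_eq_card_quotient_mul_card_subgroup Z, hcq, hcZ, mul_comm]
  · intro K hK hinv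
    have hKn : (K.subgroupOf fi24Hs).Normal := by
      constructor
      intro n hn h
      rw [Subgroup.mem_subgroupOf] at hn ⊢
      exact hinv h.1 h.2 n.1 hn
    have hmapn : ((K.subgroupOf fi24Hs).map π).Normal :=
      Subgroup.Normal.map hKn π (QuotientGroup.mk'_surjective Z)
    rcases hmapn.eq_bot_or_eq_top with h | h
    · left
      intro x hx
      have h1 : π ⟨x, hK hx⟩ ∈ (K.subgroupOf fi24Hs).map π :=
        Subgroup.mem_map_of_mem π (Subgroup.mem_subgroupOf.mpr hx)
      rw [h, Subgroup.mem_bot] at h1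
      have h2 : (⟨x, hK hx⟩ : fi24Hs) ∈ Z := (QuotientGroup.eq_one_iff _).mp h1
      rcases hZmem _ h2 with h3 | h3
      · left; exact congrArg Subtype.val h3
      · right; exact congrArg Subtype.val h3
    · right
      intro h' hh'
      have h1 : π ⟨h', hh'⟩ ∈ (K.subgroupOf fi24Hs).map π := by rw [h]; exact Subgroup.mem_top _
      obtain ⟨n, hn, e⟩ := h1
      rw [SetLike.mem_coe, Subgroup.mem_subgroupOf] at hn
      have h2 : n⁻¹ * ⟨h', hh'⟩ ∈ Z := QuotientGroup.eq.mp e
      rcases hZmem _ h2 with h3 | h3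
      · left
        have h4 : (⟨h', hh'⟩ : fi24Hs) = n := by
          have := congrArg (fun z => n * z) h3
          simpa using this
        have h5 : h' = n.1 := congrArg Subtype.val h4
        rw [h5]; exact hn
      · right
        have h4 : (⟨h', hh'⟩ : fi24Hs) * l0 = n := by
          have := congrArg (fun z => n * z * l0) h3
          simp only [mul_inv_cancel_left] at this
          rw [this, mul_assoc, hl0, mul_one]
        have h5 : h' * fi24_gen .l = n.1 := congrArg Subtype.val h4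
        rw [h5]; exact hn

theorem fi24_card : Nat.card Fi24 = 2510411418381323442585600 := by
  have h1 := Subgroup.card_mul_index fi24Hs
  rw [fi24Hs_index, fi24_Hs_struct.1] at h1
  rw [← h1]

theorem fi24_finite : Finite Fi24 :=
  Nat.finite_of_card_ne_zero (by rw [fi24_card]; norm_num)

end Cfsg.Agent.H35
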