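import Cfsg.Agent.H35.Fi24T.Order
import Cfsg.Agent.H35.Fi24T.OAll
import Cfsg.Agent.H35.Fi24T.OCnt
import Cfsg.Agent.H35.Fi24T.OCls

/-!
# The commutator subgroup of the presented Fi24 is simple (helper35)

`G = Fi24` acts on the 306936 cosets of `H = ⟨a, …, j, l⟩`, where `l` is central in `H`,
`H / ⟨l⟩ ≅ Fi23` is simple, and `H` has the orbits `{H}`, one of 275264 and one of 31671 points
(`Fi24T/OAll.lean`).  A nontrivial normal subgroup `M` of `G`:
* if `M ∩ H = 1`, the orbit of the base point under `M` is a union of `H`-orbits with more than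
  one point; it contains the coset `H k` (then `k ∈ M H`) or a point fixed by `k` (then a
  conjugate of `k` under `M` lies in `H`);
* otherwise `M ∩ H` is `⟨l⟩` or covers `H / ⟨l⟩`.
In all cases the image of `l` in `G / M` commutes with the images of all generators, so all
generators have the same image and `G' ≤ M`.  As `|G'|` is not a square, `G'` is simple.
-/

set_option autoImplicit false
set_option maxRecDepth 100000

namespace Cfsg.Agent.H35

open Cfsg.Spor Cfsg.Agent.H10

section Quot

variable {Q : Type*} [Group Q] (π : Fi24 →* Q)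

theorem fi24_img_inv (x : Fi24.Gen) : π (fi24_gen x) * π (fi24_gen x) = 1 := by
  rw [← map_mul, fi24_inv, map_one]

theorem fi24_img_edge (x y : Fi24.Gen) (h : coxLabel Fi24.edges x y = 3) :
    (π (fi24_gen x) * π (fi24_gen y)) ^ 3 = 1 := by
  have h1 := fi24_edge x y
  rw [h] at h1
  rw [← map_mul, ← map_pow, h1, map_one]

/-- if the image of `l` commutes with the images of all generators, these are all equal -/
theorem fi24_img_eq
    (hc : ∀ x, π (fi24_gen .l) * π (fi24_gen x) = π (fi24_gen x) * π (fi24_gen .l)) :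
    ∀ x, π (fi24_gen x) = π (fi24_gen .l) := by
  have step : ∀ x y : Fi24.Gen, coxLabel Fi24.edges x y = 3 →
      π (fi24_gen y) = π (fi24_gen .l) → π (fi24_gen x) = π (fi24_gen .l) := by
    intro x y hlab hy
    have h3 := fi24_img_edge π x y hlab
    rw [hy] at h3
    exact inv_edge_eq _ _ (fi24_img_inv π x) (fi24_img_inv π .l) h3 (hc x).symm
  have hk := step .k .l (by decide) rfl
  have ha := step .a .k (by decide) hk
  have hb := step .b .a (by decide) ha
  have hcc := step .c .b (by decide) hb
  have hd := step .d .c (by decide) hcc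
  have he := step .e .d (by decide) hd
  have hf := step .f .e (by decide) he
  have hg := step .g .f (by decide) hf
  have hj := step .j .g (by decide) hg
  have hh := step .h .d (by decide) hd
  have hi := step .i .h (by decide) hh
  intro x
  cases x
  · rfl
  all_goals assumption

/-- if all generators have the same image, every element has image `1` or that of `l` -/
theorem fi24_img_two (h : ∀ x, π (fi24_gen x) = π (fi24_gen .l)) :
    ∀ g : Fi24, π g = 1 ∨ π g = π (fi24_gen .l) := by
  have hle : (⊤ : Subgroup Fi24) ≤ (Subgroup.zpowers (π (fi24_gen .l))).comap π := by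
    rw [← fi24_closure, Subgroup.closure_le]
    rintro _ ⟨x, rfl⟩
    show π (fi24_gen x) ∈ Subgroup.zpowers (π (fi24_gen .l))
    rw [h x]
    exact Subgroup.mem_zpowers _
  intro g
  exact zpowers_inv_mem _ _ (fi24_img_inv π .l) (hle (Subgroup.mem_top g))

theorem fi24_comm_le_ker (h : ∀ x, π (fi24_gen x) = π (fi24_gen .l)) :
    commutator Fi24 ≤ π.ker := by
  have h2 := fi24_img_two π h
  rw [commutator_def, Subgroup.commutator_le]
  intro g1 _ g2 _
  rw [MonoidHom.mem_ker, map_commutatorElement]
  rcases h2 g1 with e1 | e1 <;> rcases h2 g2 with e2 | e2 <;> rw [e1, e2] <;> simp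

end Quot

/-- every nontrivial normal subgroup of the presented Fi24 contains the commutator subgroup -/
theorem fi24_min_normal (M : Subgroup Fi24) (hM : M.Normal) (hne : M ≠ ⊥) :
    commutator Fi24 ≤ M := by
  classical
  obtain ⟨ρ, hw, hst, htr⟩ := fi24_rep
  let π : Fi24 →* Fi24 ⧸ M := QuotientGroup.mk' M
  have hker : π.ker = M := QuotientGroup.ker_mk' M
  have hπ1 : ∀ g, π g = 1 ↔ g ∈ M := fun g => QuotientGroup.eq_one_iff g
  suffices hc : ∀ x, π (fi24_gen .l) * π (fi24_gen x) = π (fi24_gen x) * π (fi24_gen .l) by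
    have := fi24_comm_le_ker π (fi24_img_eq π hc)
    rwa [hker] at this
  have hcH : ∀ h ∈ fi24Hs, π (fi24_gen .l) * π h = π h * π (fi24_gen .l) := by
    intro h hh
    rw [← map_mul, ← map_mul, fi24_l_central h hh]
  suffices hk : π (fi24_gen .l) * π (fi24_gen .k) = π (fi24_gen .k) * π (fi24_gen .l) by
    intro x
    by_cases hx : x = .k
    · rw [hx]; exact hk
    · exact hcH _ (fi24_mem_Hs x hx)
  by_cases hMH : M ⊓ fi24Hs = ⊥
  · -- `M` acts freely on the cosets
    let p0 : Fin t1690_pd.N := ⟨0, fi24_N_pos⟩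
    have hstab : ∀ g : Fi24, g ∈ fi24Hs ↔ ρ g p0 = p0 := fun g => by rw [hst]; exact Iff.rfl
    have hfree : ∀ m ∈ M, ρ m p0 = p0 → m = 1 := by
      intro m hm h
      have h2 : m ∈ M ⊓ fi24Hs := ⟨hm, (hstab m).mpr h⟩
      rw [hMH, Subgroup.mem_bot] at h2
      exact h2
    have hSinv : ∀ h ∈ fi24Hs, ∀ m ∈ M, ∃ m' ∈ M, ρ m' p0 = ρ h (ρ m p0) := by
      intro h hh m hm
      refine ⟨h * m * h⁻¹, hM.conj_mem m hm h, ?_⟩
      have h1 : ρ h⁻¹ p0 = p0 := (hstab _).mp (fi24Hs.inv_mem hh)
      rw [map_mul, map_mul, Equiv.Perm.mul_apply, Equiv.Perm.mul_apply, h1]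
    have hfor : ∀ p q : Fin t1690_pd.N,
        fld 8 (t1690_olab p.val) 0 = fld 8 (t1690_olab q.val) 0 → ∃ g ∈ fi24Hs, ρ g p = q :=
      fun p q hpq => W.forest_orbit fi24_gen ρ hw fi24Hs t1690_olab t1690_sw fi24_oroots
        (fun w hw' => Subgroup.subset_closure ⟨w, hw', rfl⟩) fi24_for_all p q hpq
    have hcls : ∀ p : Fin t1690_pd.N, p.val = 0 ∨ fld 8 (t1690_olab p.val) 0 = 1 ∨
        fld 8 (t1690_olab p.val) 0 = 2 := by
      intro p
      have h := fi24_cls_allp p.val p.isLt
      unfold fi24_clsf at h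
      rw [Bool.or_eq_true, Bool.or_eq_true, Nat.beq_eq, Nat.beq_eq, Nat.beq_eq] at h
      exact h
    have hkinv : (fi24_gen .k)⁻¹ = fi24_gen .k := inv_eq_of_mul_eq_one_left (fi24_inv .k)
    have hpk : fld 8 (t1690_olab (ρ (fi24_gen .k) p0).val) 0 = 1 := by
      have h1 := hw [.k] p0
      rw [uw_singleton, ← map_inv, hkinv] at h1
      rw [← h1]
      exact fi24_cls_k
    by_cases h1 : ∃ m ∈ M, fld 8 (t1690_olab (ρ m p0).val) 0 = 1
    · -- the orbit of `M` contains the coset `H k`
      obtain ⟨m1, hm1, hc1⟩ := h1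
      obtain ⟨h, hh, e⟩ := hfor (ρ m1 p0) (ρ (fi24_gen .k) p0) (by rw [hc1, hpk])
      obtain ⟨m', hm', e'⟩ := hSinv h hh m1 hm1
      rw [e] at e'
      have hh0 : m'⁻¹ * fi24_gen .k ∈ fi24Hs := by
        rw [hstab, map_mul, Equiv.Perm.mul_apply, ← e', map_inv, perm_inv_apply_self]
      have hπk : π (fi24_gen .k) = π (m'⁻¹ * fi24_gen .k) := by
        rw [map_mul, map_inv, (hπ1 m').mpr hm', inv_one, one_mul]
      rw [hπk]
      exact hcH _ hh0
    · -- the orbit of `M` contains a point fixed by `k`
      have hnot1 : ∀ m ∈ M, fld 8 (t1690_olab (ρ m p0).val) 0 ≠ 1 := fun m hm hc => h1 ⟨m, hm, hc⟩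
      obtain ⟨m0, hm0, hm01⟩ : ∃ m ∈ M, m ≠ 1 := by
        by_contra hcon
        apply hne
        rw [Subgroup.eq_bot_iff_forall]
        intro x hx
        by_contra hx1
        exact hcon ⟨x, hx, hx1⟩
      have hq0 : (ρ m0 p0).val ≠ 0 := by
        intro h
        exact hm01 (hfree m0 hm0 (Fin.ext h))
      have hc0 : fld 8 (t1690_olab (ρ m0 p0).val) 0 = 2 := by
        rcases hcls (ρ m0 p0) with h | h | h
        · exact absurd h hq0
        · exact absurd h (hnot1 m0 hm0)
        · exact h
      let pb : Fin t1690_pd.N := ⟨12, by decide⟩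
      have hcb : fld 8 (t1690_olab pb.val) 0 = 2 := fi24_cls_pb
      obtain ⟨h, hh, e⟩ := hfor (ρ m0 p0) pb (by rw [hc0, hcb])
      obtain ⟨m', hm', e'⟩ := hSinv h hh m0 hm0
      rw [e] at e'
      have hkb : ρ (fi24_gen .k) pb = pb := by
        have h2 : t1690_pd.walk [.k] 12 = ((ρ (uw fi24_gen [.k]))⁻¹ pb).val := hw [.k] pb
        rw [uw_singleton, ← map_inv, hkinv, fi24_fix_pb] at h2
        exact Fin.ext h2.symm
      have hh0 : m'⁻¹ * fi24_gen .k * m' ∈ fi24Hs := by
        rw [hstab, map_mul, map_mul, Equiv.Perm.mul_apply, Equiv.Perm.mul_apply, e', hkb, ← e',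
          map_inv, perm_inv_apply_self]
      have hπk : π (fi24_gen .k) = π (m'⁻¹ * fi24_gen .k * m') := by
        rw [map_mul, map_mul, map_inv, (hπ1 m').mpr hm', inv_one, one_mul, mul_one]
      rw [hπk]
      exact hcH _ hh0
  · have hK : M ⊓ fi24Hs ≤ fi24Hs := inf_le_right
    have hinv : ∀ h ∈ fi24Hs, ∀ x ∈ M ⊓ fi24Hs, h * x * h⁻¹ ∈ M ⊓ fi24Hs := fun h hh x hx =>
      ⟨hM.conj_mem x hx.1 h, fi24Hs.mul_mem (fi24Hs.mul_mem hh hx.2) (fi24Hs.inv_mem hh)⟩
    rcases fi24_Hs_struct.2 _ hK hinv with h1 | h1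
    · obtain ⟨n, hn, hn1⟩ : ∃ n ∈ M ⊓ fi24Hs, n ≠ 1 := by
        by_contra hcon
        apply hMH
        rw [Subgroup.eq_bot_iff_forall]
        intro x hx
        by_contra hx1
        exact hcon ⟨x, hx, hx1⟩
      have hl : fi24_gen .l ∈ M := by
        rcases h1 n hn with e | e
        · exact absurd e hn1
        · rw [← e]; exact hn.1
      rw [(hπ1 _).mpr hl, one_mul, mul_one]
    · have himg : ∀ x : Fi24.Gen, x ≠ .k →
          π (fi24_gen x) = 1 ∨ π (fi24_gen x) = π (fi24_gen .l) := by
        intro x hx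
        rcases h1 _ (fi24_mem_Hs x hx) with e | e
        · left; exact (hπ1 _).mpr e.1
        · right
          have e2 : π (fi24_gen x * fi24_gen .l) = 1 := (hπ1 _).mpr e.1
          rw [map_mul] at e2
          have ht := fi24_img_inv π .l
          calc π (fi24_gen x) = π (fi24_gen x) * (π (fi24_gen .l) * π (fi24_gen .l)) := by
                rw [ht, mul_one]
            _ = (π (fi24_gen x) * π (fi24_gen .l)) * π (fi24_gen .l) := by rw [mul_assoc]
            _ = π (fi24_gen .l) := by rw [e2, one_mul]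
      rcases himg .b (by decide) with hb | hb
      · have ha : π (fi24_gen .a) = 1 :=
          inv_edge_one _ _ (fi24_img_inv π .a) (fi24_img_edge π .a .b (by decide)) hb
        have hk1 : π (fi24_gen .k) = 1 :=
          inv_edge_one _ _ (fi24_img_inv π .k) (fi24_img_edge π .k .a (by decide)) ha
        rw [hk1, one_mul, mul_one]
      · have hkb : π (fi24_gen .k) * π (fi24_gen .b) = π (fi24_gen .b) * π (fi24_gen .k) := by
          rw [← map_mul, ← map_mul, fi24_comm .k .b (by decide)]
        rw [hb] at hkb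
        exact hkb.symm

/-- the sign character of the presented Fi24 -/
theorem fi24_sign : ∃ σ : Fi24 →* Multiplicative (ZMod 2),
    ∀ x, σ (fi24_gen x) = Multiplicative.ofAdd 1 := by
  have hsat : CoxSat Fi24.edges Fi24.extra
      (fun _ : Fi24.Gen => (Multiplicative.ofAdd (1 : ZMod 2))) := by
    constructor
    · intro x y
      have h : (Multiplicative.ofAdd (1 : ZMod 2)) * Multiplicative.ofAdd (1 : ZMod 2) = 1 := by
        decide
      rw [h, one_pow]
    · intro r hr
      delta Fi24.extra at hr
      simp only [List.mem_cons, List.not_mem_nil, or_false] at hr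
      rcases hr with rfl | rfl
      · simp only [map_mul, map_inv, map_pow, FreeGroup.lift_apply_of]
        decide
      · simp only [map_mul, map_pow, FreeGroup.lift_apply_of]
        decide
  obtain ⟨σ, hσ⟩ := cox_UP Fi24.edges Fi24.extra _ hsat
  exact ⟨σ, fun x => hσ x⟩

/-- the commutator subgroup of the presented Fi24 is simple of order 1255205709190661721292800 -/
theorem fi24_main : IsSimpleGroup (commutator Fi24) ∧
    Nat.card (commutator Fi24) = 1255205709190661721292800 := by
  have hfin : Finite Fi24 := fi24_finite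
  obtain ⟨σ, hσ⟩ := fi24_sign
  have hlC : fi24_gen .l ∉ commutator Fi24 := by
    intro h
    have h1 := Abelianization.commutator_subset_ker σ h
    rw [MonoidHom.mem_ker, hσ] at h1
    exact absurd h1 (by decide)
  have hall : ∀ g : Fi24, g ∈ commutator Fi24 ∨ g * fi24_gen .l ∈ commutator Fi24 := by
    let π : Fi24 →* Abelianization Fi24 := Abelianization.of
    have hπ1 : ∀ g, π g = 1 → g ∈ commutator Fi24 := fun g hg =>
      (QuotientGroup.eq_one_iff g).mp hg
    have h1 := fi24_img_two π (fi24_img_eq π (fun x => mul_comm _ _))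
    intro g
    rcases h1 g with e | e
    · left; exact hπ1 g e
    · right
      apply hπ1
      rw [map_mul, e, fi24_img_inv π .l]
  have hidx : (commutator Fi24).index = 2 := by
    rw [Subgroup.index_eq_two_iff]
    refine ⟨fi24_gen .l, fun b => ?_⟩
    rcases hall b with h | h
    · refine Or.inr ⟨h, fun h2 => hlC ?_⟩
      have := (commutator Fi24).mul_mem ((commutator Fi24).inv_mem h) h2
      simpa using this
    · by_cases hb : b ∈ commutator Fi24
      · exfalso
        apply hlC
        have := (commutator Fi24).mul_mem ((commutator Fi24).inv_mem hb) h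
        simpa using this
      · exact Or.inl ⟨h, hb⟩
  have hcard : Nat.card (commutator Fi24) = 1255205709190661721292800 := by
    have h1 := Subgroup.card_mul_index (commutator Fi24)
    rw [hidx, fi24_card] at h1
    omega
  have hsq : ¬ IsSquare (Nat.card (commutator Fi24)) := by
    rw [hcard]
    rintro ⟨r, hr⟩
    have h29 : 29 ∣ r * r := by
      rw [← hr]
      norm_num
    have h29r : 29 ∣ r := by
      rcases (Nat.Prime.dvd_mul (by norm_num)).mp h29 with h | h <;> exact h
    obtain ⟨s, rfl⟩ := h29r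
    have h841 : 841 ∣ 1255205709190661721292800 := ⟨s * s, by rw [hr]; ring⟩
    exact absurd h841 (by norm_num)
  have hnt : Nontrivial (commutator Fi24) := by
    rw [← Finite.one_lt_card_iff_nontrivial, hcard]
    norm_num
  exact ⟨simple_of_index_two (commutator Fi24) hidx
    (fun M hM hne => fi24_min_normal M hM hne) hsq hnt, hcard⟩

end Cfsg.Agent.H35
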