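import Cfsg.Agent.H35.Fi24T.Y5V5.RAll
import Cfsg.Agent.H35.Fi24T.Y5V4.RAll
import Cfsg.Agent.H35.Fi24T.Y5V3.RAll
import Cfsg.Agent.H35.Fi24T.Y5V2.RAll
import Cfsg.Agent.H35.Fi24T.Y5V1.RAll

/-!
# The sub-presentation of Fi24 on `l, k, a, b, c, d, e, f, h, i` is finite (helper35)

The relators of the Fi24 presentation that only involve these ten generators (the Coxeter relators
of the sub-diagram `Y522` and `l = (a b c d e f h)^9`) already present a group of order at most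
`28431 * 120 * 56 * 27 * 1920 = 9904359628800` (it is `O8+(3):2`).  Tower of coset enumerations
(method and lemmas of helper10, `H10/WG.lean`): `⟨c,d,e,f,h⟩` over `1` (1920), `⟨b,…,f,h⟩` over
`⟨c,…,f,h⟩` (27), `⟨l,a,…,f,h⟩` over `⟨b,…,f,h⟩` (56), `⟨l,k,a,…,f,h⟩` over `⟨l,a,…,f,h⟩` (120)
and the whole group over `⟨l,k,a,…,f,h⟩` (28431).
-/

set_option autoImplicit false
set_option maxRecDepth 100000

namespace Cfsg.Agent.H35


open Cfsg.Agent.H10 Cfsg.Spor

/-- the subgroup generated by a list of words -/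
def swG {γ : Type} {G : Type*} [Group G] (gen : γ → G) (sw : List (List γ)) : Subgroup G :=
  Subgroup.closure {g | ∃ w ∈ sw, g = uw gen w}

theorem mem_swG {γ : Type} {G : Type*} [Group G] (gen : γ → G) (sw : List (List γ))
    (w : List γ) (hw : w ∈ sw) : uw gen w ∈ swG gen sw :=
  Subgroup.subset_closure ⟨w, hw, rfl⟩

theorem swG_le_range {γ : Type} {G' : Type*} [Group G'] {Q : Type*} [Group Q] (gen' : γ → G')
    (genQ : γ → Q) (S : γ → Bool) (φ : Q →* G') (hφ : ∀ x, S x = true → φ (genQ x) = gen' x)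
    (sw : List (List γ)) (hsw : sw.all (fun w => w.all S) = true) :
    swG gen' sw ≤ φ.range := by
  unfold swG
  rw [Subgroup.closure_le]
  rintro g ⟨w, hw, rfl⟩
  rw [List.all_eq_true] at hsw
  have hwS := hsw w hw
  have key : ∀ u : List γ, u.all S = true → φ (uw genQ u) = uw gen' u := by
    intro u
    induction u with
    | nil => intro _; simp [uw]
    | cons x u ih =>
      intro hu
      rw [List.all_cons, Bool.and_eq_true] at hu
      rw [uw_cons, uw_cons, map_mul, hφ x hu.1, ih hu.2]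
  exact ⟨uw genQ w, key w hwS⟩

/-- a group of the tower -/
abbrev Y5P5 := WG y5v5_rws y5v5_prels

/-- a group of the tower -/
abbrev Y5P4 := WG y5v4_rws y5v4_prels

/-- a group of the tower -/
abbrev Y5P3 := WG y5v3_rws y5v3_prels

/-- a group of the tower -/
abbrev Y5P2 := WG y5v2_rws y5v2_prels

/-- a group of the tower -/
abbrev Y5P1 := WG y5v1_rws y5v1_prels

theorem y5v5_bound : Finite Y5P5 ∧ Nat.card Y5P5 ≤ 1920 := by
  have hy : RHyp y5v5_rd (swG (wgGen y5v5_rws y5v5_prels) y5v5_rsw) (wgGen y5v5_rws y5v5_prels) := by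
    refine ⟨wg_inv _ _, fi24_gof_gi, by decide, fun p hp => wrapRow_of_le _ _ p hp, ?_, ?_,
      y5v5_h0, by decide⟩
    · exact circTab_valid _ (wg_inv _ _) _ (wg_full_one _ _) y5v5_circT y5v5_ccert y5v5_circ_ok
    · exact hcTab_valid _ (wg_inv _ _) _ y5v5_rsw
        (fun w hw => mem_swG _ _ w hw) y5v5_hc1T y5v5_hc2T _
        (fun c hc => allR_sound _ _ _ 0 y5v5_hc_ok c (Nat.zero_le _) (by omega) hc)
  have hb := replay_bound hy fi24_gens_all (wg_closure _ _) (by decide) (by decide) y5v5_rall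
  have hbot : swG (wgGen y5v5_rws y5v5_prels) y5v5_rsw ≤
      (Subgroup.subtype (⊥ : Subgroup Y5P5)).range := by
    unfold swG
    rw [Subgroup.closure_le]
    rintro g ⟨w, hw, rfl⟩
    exact absurd hw (by simp [y5v5_rsw])
  have := card_le_tower _ 1920 hb (Subgroup.subtype (⊥ : Subgroup Y5P5)) hbot 1
    (by rw [Subgroup.card_bot])
  simpa using this

theorem y5v4_bound : Finite Y5P4 ∧ Nat.card Y5P4 ≤ 27 * (1920) := by
  have hy : RHyp y5v4_rd (swG (wgGen y5v4_rws y5v4_prels) y5v4_rsw) (wgGen y5v4_rws y5v4_prels) := by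
    refine ⟨wg_inv _ _, fi24_gof_gi, by decide, fun p hp => wrapRow_of_le _ _ p hp, ?_, ?_,
      y5v4_h0, by decide⟩
    · exact circTab_valid _ (wg_inv _ _) _ (wg_full_one _ _) y5v4_circT y5v4_ccert y5v4_circ_ok
    · exact hcTab_valid _ (wg_inv _ _) _ y5v4_rsw
        (fun w hw => mem_swG _ _ w hw) y5v4_hc1T y5v4_hc2T _
        (fun c hc => allR_sound _ _ _ 0 y5v4_hc_ok c (Nat.zero_le _) (by omega) hc)
  have hb := replay_bound hy fi24_gens_all (wg_closure _ _) (by decide) (by decide) y5v4_rall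
  obtain ⟨φ, hφ⟩ := sub_hom y5v5_S (wgGen y5v4_rws y5v4_prels) (wg_inv _ _) y5v4_rws y5v4_prels
    y5v5_rws y5v5_prels (wg_rws _ _) (wg_prels _ _) (by decide)
  have := y5v5_bound.1
  exact card_le_tower _ 27 hb φ
    (swG_le_range _ (wgGen y5v5_rws y5v5_prels) y5v5_S φ hφ y5v4_rsw (by decide)) _ y5v5_bound.2

theorem y5v3_bound : Finite Y5P3 ∧ Nat.card Y5P3 ≤ 56 * (27 * (1920)) := by
  have hy : RHyp y5v3_rd (swG (wgGen y5v3_rws y5v3_prels) y5v3_rsw) (wgGen y5v3_rws y5v3_prels) := by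
    refine ⟨wg_inv _ _, fi24_gof_gi, by decide, fun p hp => wrapRow_of_le _ _ p hp, ?_, ?_,
      y5v3_h0, by decide⟩
    · exact circTab_valid _ (wg_inv _ _) _ (wg_full_one _ _) y5v3_circT y5v3_ccert y5v3_circ_ok
    · exact hcTab_valid _ (wg_inv _ _) _ y5v3_rsw
        (fun w hw => mem_swG _ _ w hw) y5v3_hc1T y5v3_hc2T _
        (fun c hc => allR_sound _ _ _ 0 y5v3_hc_ok c (Nat.zero_le _) (by omega) hc)
  have hb := replay_bound hy fi24_gens_all (wg_closure _ _) (by decide) (by decide) y5v3_rall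
  obtain ⟨φ, hφ⟩ := sub_hom y5v4_S (wgGen y5v3_rws y5v3_prels) (wg_inv _ _) y5v3_rws y5v3_prels
    y5v4_rws y5v4_prels (wg_rws _ _) (wg_prels _ _) (by decide)
  have := y5v4_bound.1
  exact card_le_tower _ 56 hb φ
    (swG_le_range _ (wgGen y5v4_rws y5v4_prels) y5v4_S φ hφ y5v3_rsw (by decide)) _ y5v4_bound.2

theorem y5v2_bound : Finite Y5P2 ∧ Nat.card Y5P2 ≤ 120 * (56 * (27 * (1920))) := by
  have hy : RHyp y5v2_rd (swG (wgGen y5v2_rws y5v2_prels) y5v2_rsw) (wgGen y5v2_rws y5v2_prels) := by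
    refine ⟨wg_inv _ _, fi24_gof_gi, by decide, fun p hp => wrapRow_of_le _ _ p hp, ?_, ?_,
      y5v2_h0, by decide⟩
    · exact circTab_valid _ (wg_inv _ _) _ (wg_full_one _ _) y5v2_circT y5v2_ccert y5v2_circ_ok
    · exact hcTab_valid _ (wg_inv _ _) _ y5v2_rsw
        (fun w hw => mem_swG _ _ w hw) y5v2_hc1T y5v2_hc2T _
        (fun c hc => allR_sound _ _ _ 0 y5v2_hc_ok c (Nat.zero_le _) (by omega) hc)
  have hb := replay_bound hy fi24_gens_all (wg_closure _ _) (by decide) (by decide) y5v2_rall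
  obtain ⟨φ, hφ⟩ := sub_hom y5v3_S (wgGen y5v2_rws y5v2_prels) (wg_inv _ _) y5v2_rws y5v2_prels
    y5v3_rws y5v3_prels (wg_rws _ _) (wg_prels _ _) (by decide)
  have := y5v3_bound.1
  exact card_le_tower _ 120 hb φ
    (swG_le_range _ (wgGen y5v3_rws y5v3_prels) y5v3_S φ hφ y5v2_rsw (by decide)) _ y5v3_bound.2

theorem y5v1_bound : Finite Y5P1 ∧ Nat.card Y5P1 ≤ 28431 * (120 * (56 * (27 * (1920)))) := by
  have hy : RHyp y5v1_rd (swG (wgGen y5v1_rws y5v1_prels) y5v1_rsw) (wgGen y5v1_rws y5v1_prels) := by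
    refine ⟨wg_inv _ _, fi24_gof_gi, by decide, fun p hp => wrapRow_of_le _ _ p hp, ?_, ?_,
      y5v1_h0, by decide⟩
    · exact circTab_valid _ (wg_inv _ _) _ (wg_full_one _ _) y5v1_circT y5v1_ccert y5v1_circ_ok
    · exact hcTab_valid _ (wg_inv _ _) _ y5v1_rsw
        (fun w hw => mem_swG _ _ w hw) y5v1_hc1T y5v1_hc2T _
        (fun c hc => allR_sound _ _ _ 0 y5v1_hc_ok c (Nat.zero_le _) (by omega) hc)
  have hb := replay_bound hy fi24_gens_all (wg_closure _ _) (by decide) (by decide) y5v1_rall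
  obtain ⟨φ, hφ⟩ := sub_hom y5v2_S (wgGen y5v1_rws y5v1_prels) (wg_inv _ _) y5v1_rws y5v1_prels
    y5v2_rws y5v2_prels (wg_rws _ _) (wg_prels _ _) (by decide)
  have := y5v2_bound.1
  exact card_le_tower _ 28431 hb φ
    (swG_le_range _ (wgGen y5v2_rws y5v2_prels) y5v2_S φ hφ y5v1_rsw (by decide)) _ y5v2_bound.2

end Cfsg.Agent.H35
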