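import Cfsg.Agent.H35.Fi24T.YRow
import Cfsg.Agent.H35.Fi24T.Pres
import Cfsg.Agent.H35.Slp
import Cfsg.Agent.H10.Bsgs

/-!
# Stabiliser-chain data for the sub-presentation `Y522+` of Fi24 on 1080 points (helper35; generated)

Columns 0..11 of the table are the generators `l, k, a, b, c, d, e, f, g, j, h, i` (`g`, `j` act
trivially), columns 12..29 are words in earlier columns, column 30 is the identity.
-/

set_option autoImplicit false
set_option linter.all false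

namespace Cfsg.Agent.H35

open Cfsg.Agent.H10 Cfsg.Spor

/-- column index of a letter: letters from 30 on are the identity column -/
noncomputable def y5x_gi : ℕ → ℕ := fun k => Bool.rec (motive := fun _ => ℕ) 30 k (Nat.ble (Nat.succ k) 30)
noncomputable def y5x_pd : PData ℕ := ⟨y5x_rowT, 1080, y5x_gi, [], 31⟩
noncomputable def y5p_pd : PData Fi24.Gen := ⟨y5x_rowT, 1080, fi24_gi, fi24_gens, 31⟩
def y5x_defs : List (List ℕ) := [
  [11, 1, 4, 1],
  [7, 7, 12, 6, 3, 1, 1, 12],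
  [0, 6, 6, 11, 0, 13, 13],
  [0, 0, 0, 12, 10],
  [13, 0, 10, 3, 14, 7],
  [10, 3, 5, 3, 12, 3, 12, 13],
  [11, 0, 15, 3, 5, 11],
  [12, 18, 15, 16, 12, 13],
  [6, 11, 11, 17, 18, 14, 1, 1, 15, 18, 15, 14],
  [7, 14, 15, 5, 13, 19, 15, 12, 16, 18, 16, 18, 12],
  [13, 2, 16, 18, 3, 5, 18, 14, 15, 12, 19, 19, 19],
  [17, 0, 17, 1, 11, 1, 15, 12, 17, 14, 17, 20, 22, 22, 22, 20, 22],
  [21, 20, 20, 14, 22, 5, 5, 18, 15, 18, 15, 21, 14, 22, 22, 22, 22, 22],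
  [0, 6, 19, 19, 15, 12, 17, 14, 22, 22, 22, 22, 20, 22, 24],
  [16, 10, 23, 19, 21, 12, 18, 15],
  [15, 1, 17, 13, 1, 15, 18, 12, 21, 21, 14, 22, 22, 20, 22, 20, 24, 23],
  [12, 16, 21, 0, 27, 7, 22, 26, 21, 26, 26, 21, 26, 13, 21],
  [18, 23, 15, 19, 28, 7, 22, 27]]
noncomputable def y5_lab : ℕ → ℕ := y5_labT
def y5_ws2 : List (List ℕ) := [[12], [15], [16], [18], [29]]
def y5_ws3 : List (List ℕ) := [[13], [21], [26]]
def y5_ws4 : List (List ℕ) := [[14], [17], [19], [28]]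
def y5_ws5 : List (List ℕ) := [[20], [22]]
def y5_ws6 : List (List ℕ) := [[23], [24]]
def y5_ws7 : List (List ℕ) := [[25], [27]]
def y5_spw : List Fi24.Gen := [.d, .c, .b, .d, .e, .f, .d, .h, .i, .d, .c, .b, .d, .e, .f, .d, .h, .i, .d, .c, .b, .d, .e, .f, .d, .h, .i, .d, .c, .b, .d, .e, .f, .d, .h, .i, .d, .c, .b, .d, .e, .f, .d, .h, .i, .d, .c, .b, .d, .e, .f, .d, .h, .i, .d, .c, .b, .d, .e, .f, .d, .h, .i, .d, .c, .b, .d, .e, .f, .d, .h, .i, .d, .c, .b, .d, .e, .f, .d, .h, .i, .d, .c, .b, .d, .e, .f, .d, .h, .i]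
noncomputable def y5p_pf (p : ℕ) : Bool := y5p_pd.ptOK y5v1_rws y5v1_prels p
noncomputable def y5x_slpf (p : ℕ) : Bool := slpGo y5x_pd p 12 y5x_defs
noncomputable def y5x_idf (p : ℕ) : Bool := Nat.beq (fld 16 (y5x_pd.row p) 30) p
noncomputable def y5_spf (p : ℕ) : Bool := Nat.beq (y5p_pd.walk y5_spw p) p

end Cfsg.Agent.H35
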